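import Mathlib
import Cfsg.Prelude.Def_Sporadic_a
/-! Holds the single copy of the on-demand lemmas of `Cfsg.pointBlockRel` (generated by tools/mkeqn.sh). -/
namespace Cfsg.Agent.Eqns.E_Cfsg_pointBlockRel
theorem r1 : True := by
  have := @Cfsg.pointBlockRel.eq_def.{0}
  trivial
theorem r2 : True := by
  have := @Cfsg.pointBlockRel.eq_unfold.{0}
  trivial
theorem r3 : True := by
  have := @Cfsg.pointBlockRel.fun_cases.{0}
  trivial
theorem r4 : True := by
  have := @Cfsg.pointBlockRel.fun_cases_unfolding.{0}
  trivial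
theorem r5 : True := by
  have := @Cfsg.pointBlockRel.congr_simp.{0}
  trivial
theorem r6 : True := by
  have := @Cfsg.pointBlockRel.eq_1.{0}
  trivial
theorem r7 : True := by
  have := @Cfsg.pointBlockRel.hcongr_1.{0}
  trivial
theorem r8 : True := by
  have := @Cfsg.pointBlockRel.hcongr_2.{0}
  trivial
theorem r9 : True := by
  have := @Cfsg.pointBlockRel.hcongr_3.{0}
  trivial
theorem r10 : True := by
  have := @Cfsg.pointBlockRel.hcongr_4.{0}
  trivial
end Cfsg.Agent.Eqns.E_Cfsg_pointBlockRel
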